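import Mathlib
import Cfsg.Agent.Lib.Helper68.Half.Defs

/-!
# HALF (S3371), package [FIXQ]
-/

set_option autoImplicit false

universe u v

namespace Cfsg.Agent.Lib.Helper46.Half

open Cfsg.Agent.Lib.Helper68.Half

/-- [FIXQ] -/
theorem pkgFixQ : PkgFixQ.{u, v} := by
  intro q _ V _ _ _ _ G _ _ ρ hG
  letI : MulAction G V := MulAction.compHom V ρ
  have hsmul : ∀ (g : G) (v : V), g • v = ρ g v := fun g v => rfl
  have hq : q ∣ Nat.card V := by
    obtain ⟨v, hv⟩ := exists_ne (0 : V)
    have h1 : q • v = 0 := by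
      rw [← Nat.cast_smul_eq_nsmul (ZMod q), ZMod.natCast_self, zero_smul]
    have h2 : addOrderOf v ∣ q := addOrderOf_dvd_of_nsmul_eq_zero h1
    have h3 : addOrderOf v ≠ 1 := by
      intro h
      exact hv (AddMonoid.addOrderOf_eq_one_iff.1 h)
    have h4 : addOrderOf v = q := ((Nat.dvd_prime (Fact.out : q.Prime)).1 h2).resolve_left h3
    rw [← h4]
    exact addOrderOf_dvd_natCard v
  have h0 : (0 : V) ∈ MulAction.fixedPoints G V := by
    intro g
    rw [hsmul, map_zero]
  obtain ⟨b, hb, hne⟩ := hG.exists_fixed_point_of_prime_dvd_card_of_fixed_point V hq h0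
  refine ⟨b, fun h => hne h.symm, fun g => ?_⟩
  have h5 := hb g
  rwa [hsmul] at h5

end Cfsg.Agent.Lib.Helper46.Half
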