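import Mathlib
import Cfsg.Agent.Lib.Helper68.Half.Defs

/-!
# HALF (S3371), package [MASCHKE]: invariant complements (averaging a projection)
-/

set_option autoImplicit false

universe u v

namespace Cfsg.Agent.Lib.Helper46.Half

open Cfsg.Agent.Lib.Helper68.Half

/-- [MASCHKE] -/
theorem pkgMaschke : PkgMaschke.{u, v} := by
  intro q _ V _ _ _ G _ _ p _ ρ hG hpq W hW
  classical
  haveI : Fintype G := Fintype.ofFinite G
  obtain ⟨W₀, hW₀⟩ := Submodule.exists_isCompl W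
  let π₀ : V →ₗ[ZMod q] V := W.subtype ∘ₗ (Submodule.linearProjOfIsCompl W W₀ hW₀)
  have hπ₀mem : ∀ v, π₀ v ∈ W := fun v => (Submodule.linearProjOfIsCompl W W₀ hW₀ v).2
  have hπ₀fix : ∀ w ∈ W, π₀ w = w := by
    intro w hw
    have h1 := Submodule.linearProjOfIsCompl_apply_left hW₀ ⟨w, hw⟩
    show ((Submodule.linearProjOfIsCompl W W₀ hW₀ w : W) : V) = w
    have h2 : (Submodule.linearProjOfIsCompl W W₀ hW₀ w : W) = ⟨w, hw⟩ := h1
    rw [h2]
  have hcard : ((Fintype.card G : ℕ) : ZMod q) ≠ 0 := by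
    obtain ⟨k, hk⟩ := IsPGroup.iff_card.1 hG
    rw [Nat.card_eq_fintype_card] at hk
    rw [hk, Nat.cast_pow]
    apply pow_ne_zero
    intro h0
    rw [ZMod.natCast_eq_zero_iff] at h0
    exact hpq ((Nat.prime_dvd_prime_iff_eq Fact.out Fact.out).1 h0).symm
  let π : V →ₗ[ZMod q] V := ((Fintype.card G : ℕ) : ZMod q)⁻¹ •
    ∑ g : G, ((ρ g : V ≃ₗ[ZMod q] V) : V →ₗ[ZMod q] V) ∘ₗ π₀ ∘ₗ
      ((ρ g⁻¹ : V ≃ₗ[ZMod q] V) : V →ₗ[ZMod q] V)
  have hπ : ∀ v, π v = ((Fintype.card G : ℕ) : ZMod q)⁻¹ • ∑ g : G, ρ g (π₀ (ρ g⁻¹ v)) := by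
    intro v
    simp [π, LinearMap.sum_apply]
  have hπmem : ∀ v, π v ∈ W := by
    intro v
    rw [hπ]
    exact W.smul_mem _ (W.sum_mem fun g _ => hW g _ (hπ₀mem _))
  have hπfix : ∀ w ∈ W, π w = w := by
    intro w hw
    rw [hπ]
    have h1 : ∀ g : G, ρ g (π₀ (ρ g⁻¹ w)) = w := by
      intro g
      rw [hπ₀fix _ (hW g⁻¹ w hw), ← LinearEquiv.mul_apply, ← map_mul, mul_inv_cancel, map_one]
      rfl
    rw [Finset.sum_congr rfl (fun g _ => h1 g), Finset.sum_const, Finset.card_univ,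
      ← Nat.cast_smul_eq_nsmul (ZMod q), smul_smul, inv_mul_cancel₀ hcard, one_smul]
  have hπcomm : ∀ (h : G) (v : V), π (ρ h v) = ρ h (π v) := by
    intro h v
    rw [hπ, hπ, map_smul, map_sum]
    congr 1
    rw [← Equiv.sum_comp (Equiv.mulLeft h)]
    refine Finset.sum_congr rfl fun g _ => ?_
    have h2 : ρ (h * g)⁻¹ (ρ h v) = ρ g⁻¹ v := by
      rw [← LinearEquiv.mul_apply, ← map_mul]
      congr 2
      group
    rw [Equiv.coe_mulLeft, h2, map_mul, LinearEquiv.mul_apply]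
  refine ⟨LinearMap.ker π, ?_, ?_, ?_⟩
  · intro h v hv
    rw [LinearMap.mem_ker] at hv ⊢
    rw [hπcomm, hv, map_zero]
  · rw [eq_bot_iff]
    intro w hw
    rw [Submodule.mem_inf, LinearMap.mem_ker] at hw
    rw [Submodule.mem_bot, ← hπfix w hw.1, hw.2]
  · rw [eq_top_iff]
    intro v _
    have h1 : v = π v + (v - π v) := by abel
    rw [h1]
    refine Submodule.add_mem_sup (hπmem v) ?_
    rw [LinearMap.mem_ker, map_sub, hπfix _ (hπmem v), sub_self]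

end Cfsg.Agent.Lib.Helper46.Half
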