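import Mathlib
import Cfsg.Agent.Lib.Helper68.Half.Defs

/-!
# HALF (S3371), package [SPLIT]
-/

set_option autoImplicit false

universe u v

namespace Cfsg.Agent.Lib.Helper46.Half

open Cfsg.Agent.Lib.Helper68.Half

/-- [SPLIT] -/
theorem pkgSplit : PkgSplit.{u, v} := by
  intro q _ V _ _ _ G _ _ ρ hEq U₁ U₂ hU₁ hU₂ hinf u₁ hu₁ u₂ hu₂ h1 h2
  have hbot : ∀ x : V, x ∈ U₁ → x ∈ U₂ → x = 0 := by
    intro x hx1 hx2
    have hx : x ∈ U₁ ⊓ U₂ := ⟨hx1, hx2⟩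
    rw [hinf] at hx
    exact (Submodule.mem_bot _).1 hx
  have hsum : u₁ + u₂ ≠ 0 := by
    intro h
    have h3 : u₁ = -u₂ := eq_neg_of_add_eq_zero_left h
    exact h1 (hbot u₁ hu₁ (by rw [h3]; exact U₂.neg_mem hu₂))
  have key : ∀ g : G, ρ g (u₁ + u₂) = u₁ + u₂ → ρ g u₁ = u₁ ∧ ρ g u₂ = u₂ := by
    intro g hg
    rw [map_add] at hg
    have h3 : ρ g u₁ - u₁ = u₂ - ρ g u₂ := by
      rw [sub_eq_sub_iff_add_eq_add]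
      rw [hg]
      abel
    have h4 : ρ g u₁ - u₁ = 0 :=
      hbot _ (U₁.sub_mem (hU₁ g u₁ hu₁) hu₁) (by rw [h3]; exact U₂.sub_mem hu₂ (hU₂ g u₂ hu₂))
    have h5 : ρ g u₁ = u₁ := sub_eq_zero.1 h4
    refine ⟨h5, ?_⟩
    rw [h5] at hg
    exact add_left_cancel hg
  have hle1 : St ρ (u₁ + u₂) ≤ St ρ u₁ := fun g hg => (key g hg).1
  have hle2 : St ρ (u₁ + u₂) ≤ St ρ u₂ := fun g hg => (key g hg).2
  have e1 : St ρ (u₁ + u₂) = St ρ u₁ :=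
    Subgroup.eq_of_le_of_card_ge hle1 (hEq u₁ (u₁ + u₂) h1 hsum).le
  have e2 : St ρ (u₁ + u₂) = St ρ u₂ :=
    Subgroup.eq_of_le_of_card_ge hle2 (hEq u₂ (u₁ + u₂) h2 hsum).le
  rw [← e1, e2]

end Cfsg.Agent.Lib.Helper46.Half
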